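import Mathlib
import Cfsg.Agent.Lib.Lead.ZS10
import Cfsg.Agent.S0218

set_option autoImplicit false

namespace Cfsg.Agent.Lib.Lead

open Subgroup Cfsg
open Cfsg.Agent.Lib.Helper10 (pPrimeCore_mem pPrimeCore_coprime le_pPrimeCore)

universe u

variable {G : Type u} [Group G] [Finite G]

/-- Structure of a group with generalized quaternion Sylow 2-subgroups, from `Z*`. -/
theorem quat_zstar (S : Sylow 2 G) (n : ℕ) (e : (S : Subgroup G) ≃* QuaternionGroup (2 ^ (n + 1))) :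
    ∃ z : G, z ∈ S ∧ IsoInv z ∧ (∀ s : G, orderOf s = 2 → IsConj z s) ∧
      (∀ s ∈ S, orderOf s = 2 → s = z) := by
  haveI : Fact (Nat.Prime 2) := ⟨Nat.prime_two⟩
  have hc1 := Cfsg.Agent.S0218.result n
  rw [Nat.card_eq_one_iff_unique] at hc1
  obtain ⟨hsub, ⟨⟨z0, hz0⟩⟩⟩ := hc1
  have huq : ∀ x : QuaternionGroup (2 ^ (n + 1)), orderOf x = 2 → x = z0 := by
    intro x hx
    have := hsub.elim (⟨x, hx⟩ : {x : QuaternionGroup (2 ^ (n + 1)) // orderOf x = 2}) ⟨z0, hz0⟩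
    exact congrArg Subtype.val this
  set z : G := ((e.symm z0 : (S : Subgroup G)) : G) with hz
  have hzS : z ∈ S := (e.symm z0).2
  have hzo : orderOf z = 2 := by
    rw [hz, Subgroup.orderOf_coe, MulEquiv.orderOf_eq, hz0]
  have huS : ∀ s : G, s ∈ S → orderOf s = 2 → s = z := by
    intro s hs hso
    have h1 : orderOf (e ⟨s, hs⟩) = 2 := by rw [MulEquiv.orderOf_eq, Subgroup.orderOf_mk, hso]
    have h2 := huq _ h1
    have h3 : (⟨s, hs⟩ : (S : Subgroup G)) = e.symm z0 := by rw [← h2, MulEquiv.symm_apply_apply]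
    exact congrArg Subtype.val h3
  have hiso : ∀ g : G, g * z * g⁻¹ ∈ S → g * z * g⁻¹ = z := by
    intro g hg
    apply huS _ hg
    have := (MulAut.conj g).orderOf_eq z
    rw [MulAut.conj_apply] at this
    rw [this, hzo]
  refine ⟨z, hzS, isoInv_of_sylow S z hzo hzS hiso, ?_, huS⟩
  intro s hs
  have hp : IsPGroup 2 (zpowers s) := by
    apply IsPGroup.of_card (n := 1)
    rw [Nat.card_zpowers, hs, pow_one]
  obtain ⟨Q, hQ⟩ := hp.exists_le_sylow
  obtain ⟨c, rfl⟩ := MulAction.exists_smul_eq G S Q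
  have h3 : s ∈ (c • S : Sylow 2 G) := hQ (mem_zpowers _)
  rw [mem_sylow_smul_iff] at h3
  have h4 : orderOf (c⁻¹ * s * c) = 2 := by
    have := (MulAut.conj c⁻¹).orderOf_eq s
    rw [MulAut.conj_apply, inv_inv] at this
    rw [this, hs]
  have h5 := huS _ h3 h4
  rw [isConj_iff]
  exact ⟨c, by rw [← h5]; group⟩

/-- `M = O(G)⟨z⟩` for an isolated involution. -/
theorem iso_normal_sup {z : G} (hz : IsoInv z) :
    ∃ M : Subgroup G, M.Normal ∧ z ∈ M ∧ Nat.card M = 2 * Nat.card (Cfsg.pPrimeCore 2 G) := by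
  haveI hOn : (Cfsg.pPrimeCore 2 G).Normal := (pPrimeCore_mem 2 G).1
  set O := Cfsg.pPrimeCore 2 G with hO
  have hzO : z ∉ O := by
    intro h
    have h1 := orderOf_dvd_natCard (⟨z, h⟩ : O)
    rw [Subgroup.orderOf_mk, hz.1] at h1
    have := Nat.Coprime.eq_one_of_dvd (pPrimeCore_coprime 2 G).symm h1
    omega
  -- image of z in the quotient is central of order two
  set zb : G ⧸ O := (z : G ⧸ O) with hzb
  have hzb2 : orderOf zb = 2 := by
    haveI : Fact (Nat.Prime 2) := ⟨Nat.prime_two⟩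
    apply orderOf_eq_prime
    · rw [pow_two, hzb, ← QuotientGroup.mk_mul, inv_sq hz.1]; rfl
    · intro h
      exact hzO ((QuotientGroup.eq_one_iff z).mp h)
  have hcen : ∀ q : G ⧸ O, q * zb * q⁻¹ = zb := by
    intro q
    obtain ⟨g, rfl⟩ := QuotientGroup.mk_surjective q
    have h1 := zstar hz g
    have h2 : ((z * (g * z * g⁻¹) : G) : G ⧸ O) = 1 := (QuotientGroup.eq_one_iff _).mpr h1
    rw [QuotientGroup.mk_mul] at h2
    have h3 : ((g * z * g⁻¹ : G) : G ⧸ O) = zb⁻¹ := (inv_eq_of_mul_eq_one_right h2).symm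
    have h4 : zb⁻¹ = zb := inv_inv_eq hzb2
    rw [h4] at h3
    have h5 : ((g * z * g⁻¹ : G) : G ⧸ O) = (g : G ⧸ O) * zb * (g : G ⧸ O)⁻¹ := by
      rw [hzb]; simp
    rw [← h5, h3]
  have hZn : (zpowers zb).Normal := by
    refine ⟨?_⟩
    rintro _ ⟨k, rfl⟩ q
    simp only
    rw [← conj_zpow, hcen q]
    exact ⟨k, rfl⟩
  refine ⟨(zpowers zb).comap (QuotientGroup.mk' O), inferInstance, ?_, ?_⟩
  · rw [Subgroup.mem_comap]; exact mem_zpowers _
  · have := QuotientGroup.card_preimage_mk O ((zpowers zb : Subgroup (G ⧸ O)) : Set (G ⧸ O))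
    have h2 : Nat.card ((zpowers zb).comap (QuotientGroup.mk' O)) = Nat.card O * Nat.card (zpowers zb) := this
    rw [h2, Nat.card_zpowers, hzb2, mul_comm]

end Cfsg.Agent.Lib.Lead
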