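import Mathlib
import Cfsg.Agent.Lib.Lead.Dih

set_option autoImplicit false

namespace Cfsg.Agent.Lib.Lead

open Subgroup

variable {G : Type*} [Group G]

/-- class equation for one class: `|x^G| * |C(x)| = |G|`. -/
theorem card_conj_mul_card_centralizer [Finite G] (x : G) :
    Nat.card {u : G // IsConj x u} * Nat.card (centralizer ({x} : Set G)) = Nat.card G := by
  classical
  haveI := Fintype.ofFinite G
  rw [nat_card_centralizer_nat_card_stabilizer]
  have h := MulAction.card_orbit_mul_card_stabilizer_eq_card_group (ConjAct G) x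
  have e : Nat.card {u : G // IsConj x u} = Fintype.card (MulAction.orbit (ConjAct G) x) := by
    rw [← Nat.card_eq_fintype_card]
    apply Nat.card_congr
    apply Equiv.subtypeEquivRight
    intro u
    rw [ConjAct.mem_orbit_conjAct, isConj_comm]
  rw [e, Nat.card_eq_fintype_card, h, Nat.card_eq_fintype_card]
  rfl

/-- the unique involution of a cyclic group of order `2h`. -/
theorem uniq_inv (r y : G) (h : ℕ) (ho : orderOf r = 2 * h) (hy : orderOf y = 2)
    (hm : y ∈ zpowers r) : y = r ^ h := by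
  obtain ⟨k, rfl⟩ := hm
  have h1 : (r ^ k) * (r ^ k) = 1 := mul_self_of_orderOf_two hy
  have h2 : r ^ (2 * k) = 1 := by rw [two_mul, zpow_add]; exact h1
  have h3 : ((2 * h : ℕ) : ℤ) ∣ 2 * k := by rw [← ho]; exact orderOf_dvd_iff_zpow_eq_one.mpr h2
  have h4 : (h : ℤ) ∣ k := by
    have : (2 : ℤ) * h ∣ 2 * k := by push_cast at h3; exact h3
    exact (mul_dvd_mul_iff_left (by norm_num)).mp this
  have h5 : r ^ (2 * (h : ℤ)) = 1 := by
    have := pow_orderOf_eq_one r
    rw [ho] at this
    exact_mod_cast this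
  obtain ⟨m, rfl⟩ := h4
  rcases Int.even_or_odd' m with ⟨j, rfl | rfl⟩
  · exfalso
    apply ne_one_of_orderOf_two hy
    have : (h : ℤ) * (2 * j) = (2 * (h : ℤ)) * j := by ring
    show r ^ ((h : ℤ) * (2 * j)) = 1
    rw [this, zpow_mul, h5, one_zpow]
  · have : (h : ℤ) * (2 * j + 1) = (2 * (h : ℤ)) * j + h := by ring
    show r ^ ((h : ℤ) * (2 * j + 1)) = r ^ h
    rw [this, zpow_add, zpow_mul, h5, one_zpow, one_mul, zpow_natCast]

end Cfsg.Agent.Lib.Lead
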