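import Mathlib
import Cfsg.Agent.Lib.Lead.Count

set_option autoImplicit false

namespace Cfsg.Agent.Lib.Lead

open Subgroup

variable {G : Type*} [Group G]

/-- the elements inverting `x` form a coset of `C(x)` or the empty set. -/
theorem card_inverting_le [Fintype G] [DecidableEq G] (x : G) :
    (Finset.univ.filter (fun u : G => u * x * u⁻¹ = x⁻¹)).card ≤ Nat.card (centralizer ({x} : Set G)) := by
  classical
  rcases (Finset.univ.filter (fun u : G => u * x * u⁻¹ = x⁻¹)).eq_empty_or_nonempty with h | ⟨u₀, hu₀⟩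
  · rw [h]; simp
  · rw [Nat.card_eq_fintype_card, Fintype.card_subtype]
    simp only [Finset.mem_filter, Finset.mem_univ, true_and] at hu₀
    apply Finset.card_le_card_of_injOn (fun u => u₀⁻¹ * u)
    · intro u hu
      simp only [Finset.coe_filter, Finset.mem_univ, true_and, Set.mem_ofPred_eq] at hu ⊢
      rw [mem_centralizer_singleton_iff]
      have h1 : u * x = x⁻¹ * u := by rw [← hu]; group
      have h2 : u₀ * x = x⁻¹ * u₀ := by rw [← hu₀]; group
      have h3 : u₀⁻¹ * x⁻¹ = x * u₀⁻¹ := by
        have : x⁻¹ = u₀ * x * u₀⁻¹ := hu₀.symm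
        rw [this]; group
      calc u₀⁻¹ * u * x = u₀⁻¹ * (u * x) := by group
        _ = u₀⁻¹ * (x⁻¹ * u) := by rw [h1]
        _ = (u₀⁻¹ * x⁻¹) * u := by group
        _ = x * u₀⁻¹ * u := by rw [h3]
        _ = x * (u₀⁻¹ * u) := by group
    · intro a _ b _ hab
      exact mul_left_cancel hab

theorem simple_card_le_factorial_index [Finite G] [IsSimpleGroup G] (H : Subgroup G) (hH : H ≠ ⊤) :
    Nat.card G ≤ Nat.factorial H.index := by
  have h : H.normalCore.index ∣ Nat.factorial H.index := by
    rw [normalCore_eq_ker, index_ker, index_eq_card, ← Nat.card_perm]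
    exact card_subgroup_dvd_card (MulAction.toPermHom G (G ⧸ H)).range
  have h2 : H.normalCore = ⊥ := by
    rcases (H.normalCore_normal).eq_bot_or_eq_top with h | h
    · exact h
    · exact absurd (top_le_iff.mp (h ▸ H.normalCore_le)) hH
  rw [h2, index_bot] at h
  exact Nat.le_of_dvd (Nat.factorial_pos _) h

end Cfsg.Agent.Lib.Lead
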