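import Cfsg.Agent.Lib.Helper26.BPAlg

/-!
# A nonzero idempotent commuting with a `p`-subgroup `S` is not killed by the sum of `S`
(characteristic `p`): the group algebra is free over `kS`.
-/

set_option autoImplicit false
set_option linter.unusedSectionVars false
set_option linter.unusedVariables false
set_option linter.style.haveILetI false

namespace Cfsg.Agent.Lib.Lead.Green

open Cfsg.Agent.Lib.Helper26.BP Cfsg.Agent.Lib.Helper26.BP.GA

noncomputable section
open Classical

variable {k : Type*} {G : Type*} [CommRing k] [Group G] [Fintype G]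

/-- the basis element of the group algebra -/
def dl (s : G) : GA k G := fun g => if g = s then 1 else 0

theorem dl_apply (s g : G) : (dl s : GA k G) g = if g = s then 1 else 0 := rfl

theorem dl_mul_apply (s : G) (a : GA k G) (x : G) : (dl s * a : GA k G) x = a (s⁻¹ * x) := by
  rw [mul_apply, Finset.sum_eq_single s]
  · simp [dl_apply]
  · intro g _ hg; simp [dl_apply, hg]
  · intro h; exact absurd (Finset.mem_univ _) h

theorem dl_one : (dl 1 : GA k G) = 1 := rfl

theorem dl_mul_dl (s t : G) : (dl s * dl t : GA k G) = dl (s * t) := by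
  ext x
  rw [dl_mul_apply, dl_apply, dl_apply]
  by_cases h : x = s * t
  · rw [if_pos h, if_pos (by rw [h]; group)]
  · rw [if_neg h, if_neg (by intro h'; apply h; rw [← h']; group)]

theorem suppIn_dl {K : Subgroup G} {s : G} (hs : s ∈ K) : SuppIn K (dl s : GA k G) := by
  intro g hg
  rw [dl_apply, if_neg]
  rintro rfl
  exact hg hs

/-- the sum of the elements of a subgroup -/
def sg (S : Subgroup G) : GA k G := fun g => if g ∈ S then 1 else 0

theorem sg_apply (S : Subgroup G) (g : G) : (sg S : GA k G) g = if g ∈ S then 1 else 0 := rfl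

theorem mul_sg_apply (S : Subgroup G) (f : GA k G) (t : G) :
    (f * sg S : GA k G) t = ∑ h : G, if h ∈ S then f (t * h) else 0 := by
  rw [mul_apply]
  apply Fintype.sum_equiv (Equiv.mulLeft t⁻¹)
  intro g
  simp only [Equiv.coe_mulLeft, sg_apply, mul_inv_cancel_left]
  have : g⁻¹ * t ∈ S ↔ t⁻¹ * g ∈ S := by
    rw [← S.inv_mem_iff]; simp
  by_cases h : t⁻¹ * g ∈ S
  · rw [if_pos h, if_pos (this.2 h), mul_one]
  · rw [if_neg h, if_neg (fun h' => h (this.1 h')), mul_zero]

theorem mul_eq_zero_of_mul_sg {S : Subgroup G} {f v : GA k G} (hf : f * sg S = 0)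
    (hv : ∀ s ∈ S, ∀ g, v (s * g) = v g) : f * v = 0 := by
  obtain ⟨T, hT, -⟩ := S.exists_isComplement_left 1
  ext x
  rw [mul_apply, GA.zero_apply]
  haveI : Fintype T := Fintype.ofFinite _
  haveI : Fintype ((S : Set G)) := Fintype.ofFinite _
  have hT' : Function.Bijective (fun y : T × (S : Set G) => (y.1 : G) * (y.2 : G)) := hT
  rw [← (Equiv.ofBijective _ hT').sum_comp, Fintype.sum_prod_type]
  apply Finset.sum_eq_zero
  intro t _
  have h1 : ∀ s : (S : Set G), f (Equiv.ofBijective _ hT' (t, s)) *
      v ((Equiv.ofBijective _ hT' (t, s))⁻¹ * x) = f ((t : G) * s) * v ((t : G)⁻¹ * x) := by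
    intro s
    simp only [Equiv.ofBijective_apply]
    rw [mul_inv_rev, mul_assoc, hv _ (S.inv_mem s.2)]
  rw [Finset.sum_congr rfl (fun s _ => h1 s), ← Finset.sum_mul]
  have h2 : ∑ s : (S : Set G), f ((t : G) * s) = (f * sg S : GA k G) t := by
    rw [mul_sg_apply, ← Finset.sum_filter]
    symm
    apply Finset.sum_subtype
    intro y
    simp
  rw [h2, hf, GA.zero_apply, zero_mul]

theorem exists_fixed {p : ℕ} [hp : Fact p.Prime] [CharP k p] {S : Subgroup G} (hS : IsPGroup p S)
    {f : GA k G} (hidem : f * f = f) (hne : f ≠ 0) (hinv : Inv S f) :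
    ∃ v : GA k G, v ≠ 0 ∧ f * v = v ∧ ∀ s ∈ S, ∀ g, v (s * g) = v g := by
  let O : Set (GA k G) := Set.range (fun s : S => dl (s : G) * f)
  let W : AddSubgroup (GA k G) := AddSubgroup.closure O
  have hOfin : O.Finite := Set.finite_range _
  have hcomm : ∀ s ∈ S, f * dl s = dl s * f := fun s hs => comm_of_inv hinv (suppIn_dl hs)
  have hWf : ∀ w ∈ W, f * w = w := by
    intro w hw
    induction hw using AddSubgroup.closure_induction with
    | mem x hx =>
      obtain ⟨s, rfl⟩ := hx
      show f * (dl (s : G) * f) = dl (s : G) * f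
      rw [← mul_assoc, hcomm s s.2, mul_assoc, hidem]
    | zero => rw [mul_zero]
    | add x y _ _ hx hy => rw [mul_add, hx, hy]
    | neg x _ hx => rw [mul_neg, hx]
  have hWS : ∀ s ∈ S, ∀ w ∈ W, dl s * w ∈ W := by
    intro s hs w hw
    induction hw using AddSubgroup.closure_induction with
    | mem x hx =>
      obtain ⟨t, rfl⟩ := hx
      apply AddSubgroup.subset_closure
      refine ⟨⟨s, hs⟩ * t, ?_⟩
      show dl (s * (t : G)) * f = dl s * (dl (t : G) * f)
      rw [← dl_mul_dl, mul_assoc]
    | zero => rw [mul_zero]; exact W.zero_mem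
    | add x y _ _ hx hy => rw [mul_add]; exact W.add_mem hx hy
    | neg x _ hx => rw [mul_neg]; exact W.neg_mem hx
  have hpw : ∀ w : GA k G, p • w = 0 := by
    intro w
    ext g
    have : (p • w) g = p • (w g) := rfl
    rw [this, nsmul_eq_mul, CharP.cast_eq_zero, zero_mul]; rfl
  haveI : Finite O := hOfin
  haveI : AddGroup.FG W := AddGroup.closure_finite_fg O
  haveI : Finite W := by
    apply AddCommGroup.finite_of_fg_isAddTorsion
    intro w
    rw [isOfFinAddOrder_iff_nsmul_eq_zero]
    refine ⟨p, hp.out.pos, ?_⟩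
    apply Subtype.ext
    exact hpw w
  letI : MulAction S W :=
    { smul := fun s w => ⟨dl (s : G) * (w : GA k G), hWS s s.2 w w.2⟩
      one_smul := fun w => by
        apply Subtype.ext
        show (dl ((1 : S) : G) : GA k G) * (w : GA k G) = (w : GA k G)
        rw [Subgroup.coe_one, dl_one, one_mul]
      mul_smul := fun s t w => by
        apply Subtype.ext
        show dl ((s * t : S) : G) * (w : GA k G) = dl (s : G) * (dl (t : G) * (w : GA k G))
        rw [Subgroup.coe_mul, ← dl_mul_dl, mul_assoc] }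
  have hfW : f ∈ W := by
    apply AddSubgroup.subset_closure
    exact ⟨1, by show dl ((1 : S) : G) * f = f; rw [Subgroup.coe_one, dl_one, one_mul]⟩
  have hdvd : p ∣ Nat.card W := by
    have h1 : addOrderOf (⟨f, hfW⟩ : W) = p := by
      apply addOrderOf_eq_prime
      · apply Subtype.ext; exact hpw f
      · intro h; exact hne (congrArg Subtype.val h)
    rw [← h1]
    exact addOrderOf_dvd_natCard _
  have h0 : (0 : W) ∈ MulAction.fixedPoints S W := by
    intro s
    apply Subtype.ext
    show dl (s : G) * ((0 : W) : GA k G) = ((0 : W) : GA k G)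
    simp
  obtain ⟨b, hb, hb0⟩ := hS.exists_fixed_point_of_prime_dvd_card_of_fixed_point W hdvd h0
  refine ⟨b, fun h => hb0 (Subtype.ext h.symm), hWf b b.2, ?_⟩
  intro s hs g
  have h1 := hb ⟨s⁻¹, S.inv_mem hs⟩
  have h2 : dl (s⁻¹) * (b : GA k G) = (b : GA k G) := congrArg Subtype.val h1
  have h3 := congrFun h2 g
  rw [dl_mul_apply, inv_inv] at h3
  exact h3

/-- a nonzero idempotent commuting with the `p`-subgroup `S` is not annihilated by the sum of `S` -/
theorem mul_sg_ne_zero {p : ℕ} [hp : Fact p.Prime] [CharP k p] {S : Subgroup G} (hS : IsPGroup p S)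
    {f : GA k G} (hidem : f * f = f) (hne : f ≠ 0) (hinv : Inv S f) : f * sg S ≠ 0 := by
  intro h
  obtain ⟨v, hv0, hfv, hv⟩ := exists_fixed hS hidem hne hinv
  apply hv0
  rw [← hfv]
  exact mul_eq_zero_of_mul_sg h hv

end

end Cfsg.Agent.Lib.Lead.Green
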