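import Mathlib

set_option autoImplicit false

namespace Cfsg.Agent.Lib.Lead

open Subgroup

variable {G : Type*} [Group G]

/-- The four-group generated by two commuting involutions. -/
def kleinSub (a b : G) (ha : a * a = 1) (hb : b * b = 1) (hab : a * b = b * a) : Subgroup G where
  carrier := {1, a, b, a * b}
  one_mem' := by simp
  mul_mem' := by
    have e1 : a * (a * b) = b := by rw [← mul_assoc, ha, one_mul]
    have e2 : b * (a * b) = a := by rw [hab, ← mul_assoc, hb, one_mul]
    have e3 : a * b * a = b := by rw [hab, mul_assoc, ha, mul_one]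
    have e4 : a * b * b = a := by rw [mul_assoc, hb, mul_one]
    have e5 : a * b * (a * b) = 1 := by rw [mul_assoc, e2, ha]
    rintro x y (rfl | rfl | rfl | rfl) (rfl | rfl | rfl | rfl) <;>
      simp [ha, hb, e1, e2, e3, e4, e5, ← hab]
  inv_mem' := by
    have i1 : a⁻¹ = a := inv_eq_of_mul_eq_one_left ha
    have i2 : b⁻¹ = b := inv_eq_of_mul_eq_one_left hb
    rintro x (rfl | rfl | rfl | rfl) <;> simp [i1, i2, ← hab]

theorem isKleinFour_kleinSub (a b : G) (ha : a * a = 1) (hb : b * b = 1) (hab : a * b = b * a)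
    (ha1 : a ≠ 1) (hb1 : b ≠ 1) (hne : a ≠ b) : IsKleinFour (kleinSub a b ha hb hab) := by
  classical
  have i1 : a⁻¹ = a := inv_eq_of_mul_eq_one_left ha
  have hcard : Nat.card (kleinSub a b ha hb hab) = 4 := by
    have : Nat.card (kleinSub a b ha hb hab) = Set.ncard ({1, a, b, a * b} : Set G) := rfl
    rw [this]
    have hab1 : a * b ≠ 1 := by
      intro h
      have : b = a⁻¹ := (inv_eq_of_mul_eq_one_right h).symm
      rw [i1] at this
      exact hne this.symm
    rw [Set.ncard_eq_toFinset_card']
    have : ({1, a, b, a * b} : Set G).toFinset = ({1, a, b, a * b} : Finset G) := by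
      ext x; simp
    rw [this]
    rw [Finset.card_insert_of_notMem, Finset.card_insert_of_notMem, Finset.card_insert_of_notMem,
      Finset.card_singleton]
    · simp [ha1]
    · simp [hne, hb1]
    · simp [Ne.symm ha1, Ne.symm hb1, Ne.symm hab1]
  haveI : Nontrivial (kleinSub a b ha hb hab) := by
    haveI : Finite (kleinSub a b ha hb hab) := Nat.finite_of_card_ne_zero (by rw [hcard]; norm_num)
    rw [← Finite.one_lt_card_iff_nontrivial, hcard]
    norm_num
  refine ⟨hcard, ?_⟩
  rw [Monoid.exponent_eq_prime_iff Nat.prime_two]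
  rintro ⟨x, hx⟩ hx1
  haveI : Fact (Nat.Prime 2) := ⟨Nat.prime_two⟩
  apply orderOf_eq_prime _ hx1
  apply Subtype.ext
  have e5 : a * b * (a * b) = 1 := by
    calc a * b * (a * b) = a * (b * a) * b := by group
      _ = a * (a * b) * b := by rw [hab]
      _ = (a * a) * (b * b) := by group
      _ = 1 := by rw [ha, hb, one_mul]
  rcases hx with rfl | rfl | rfl | rfl <;> simp [pow_two, ha, hb, e5]

theorem mem_kleinSub_left (a b : G) (ha : a * a = 1) (hb : b * b = 1) (hab : a * b = b * a) :
    a ∈ kleinSub a b ha hb hab := by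
  show a ∈ ({1, a, b, a * b} : Set G)
  simp

theorem mem_kleinSub_right (a b : G) (ha : a * a = 1) (hb : b * b = 1) (hab : a * b = b * a) :
    b ∈ kleinSub a b ha hb hab := by
  show b ∈ ({1, a, b, a * b} : Set G)
  simp

end Cfsg.Agent.Lib.Lead
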