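import Cfsg.Agent.S0907
import Cfsg.Agent.S4710
import Cfsg.Agent.Lib.Helper24.BlockDefect
import Cfsg.Agent.Lib.Helper7.BlockFirst
import Cfsg.Agent.Lib.Helper2.CharInt
import Cfsg.Agent.Lib.Helper2.CharBurn

set_option autoImplicit false
set_option linter.style.haveILetI false
open Cfsg
open scoped ComplexConjugate

namespace Cfsg.Agent.Lib.Lead.PQR2

open Cfsg.Agent.Lib.Helper7 Cfsg.Agent.Lib.Helper24

universe u
variable {G : Type u} [Group G]

/-- For an `s`-singular element `g` and any prime `t`, the principal `s`-block contains a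
non-principal character of degree prime to `t` not vanishing at `g`. -/
theorem exists_principal_char [Finite G] (s t : ℕ) (hs : s.Prime) (ht : t.Prime)
    (M : Ideal AlgInt) (hM : IsPModular s M) (g : G) (hgs : s ∣ orderOf g) :
    ∃ χ ∈ principalBlock M G, χ ≠ oneIrr G ∧ ¬ t ∣ charDegree (χ : G → ℂ) ∧
      (χ : G → ℂ) g ≠ 0 := by
  classical
  haveI : Fact s.Prime := ⟨hs⟩
  haveI := IsPModular.isPrime hM
  haveI := Fintype.ofFinite (IrrCharacter G)
  have h0 := Cfsg.Agent.S0907.result s M hM (principalBlock M G) isPBlock_principalBlock 1 g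
    (by rw [orderOf_one]; exact hs.one_lt.ne' ∘ Nat.dvd_one.1) hgs
  by_contra hcon
  push Not at hcon
  rw [finsum_mem_eq_finite_toFinset_sum _ (Set.toFinite _)] at h0
  have hmem : oneIrr G ∈ (Set.toFinite (principalBlock M G)).toFinset := by
    simpa using oneIrr_mem_principalBlock
  rw [← Finset.add_sum_erase _ _ hmem] at h0
  have h1 : ((oneIrr G : IrrCharacter G) : G → ℂ) 1 * conj (((oneIrr G : IrrCharacter G) : G → ℂ) g)
      = 1 := by simp [oneIrr]
  rw [h1] at h0
  let z : IrrCharacter G → ℂ := fun χ =>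
    ((charDegree (χ : G → ℂ) / t : ℕ) : ℂ) * conj ((χ : G → ℂ) g)
  have h2 : ∀ χ ∈ ((Set.toFinite (principalBlock M G)).toFinset).erase (oneIrr G),
      (χ : G → ℂ) 1 * conj ((χ : G → ℂ) g) = (t : ℂ) * z χ := by
    intro χ hχ
    rw [Finset.mem_erase] at hχ
    have hχB : χ ∈ principalBlock M G := by simpa using hχ.2
    by_cases hd : t ∣ charDegree (χ : G → ℂ)
    · obtain ⟨k, hk⟩ := hd
      have : charDegree (χ : G → ℂ) / t = k := by
        rw [hk]; exact Nat.mul_div_cancel_left _ ht.pos
      simp only [z]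
      rw [this, ← charDegree_cast (isCharacter_of_irr χ.2), hk]
      push_cast
      ring
    · have := hcon χ hχB hχ.1 hd
      simp [z, this]
  rw [Finset.sum_congr rfl h2, ← Finset.mul_sum] at h0
  set Z := ∑ χ ∈ ((Set.toFinite (principalBlock M G)).toFinset).erase (oneIrr G), z χ with hZ
  have hZint : IsIntegral ℤ Z := by
    apply IsIntegral.sum
    intro χ _
    apply IsIntegral.mul
    · exact isIntegral_natCast (R := ℤ) (B := ℂ) _
    · rw [← char_inv_eq_conj (isCharacter_of_irr χ.2)]
      exact char_isIntegral (isCharacter_of_irr χ.2) _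
  have ht0 : (t : ℂ) ≠ 0 := by exact_mod_cast ht.ne_zero
  have hZq : Z = ((-1 / (t : ℚ) : ℚ) : ℂ) := by
    push_cast
    field_simp
    linear_combination h0
  obtain ⟨k, hk⟩ := Cfsg.Agent.Lib.Helper2.exists_int_of_isIntegral_of_rat hZint _ hZq
  rw [hk] at h0
  have h3 : (1 : ℤ) + t * k = 0 := by exact_mod_cast h0
  have h4 : (t : ℤ) ∣ 1 := ⟨-k, by linarith⟩
  have h5 : t ∣ 1 := by exact_mod_cast h4
  exact ht.one_lt.ne' (Nat.dvd_one.1 h5)

/-- a non-perfect finite group has a non-principal linear character -/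
theorem exists_linear_of_not_perfect [Finite G] (h : commutator G ≠ ⊤) :
    ∃ χ : IrrCharacter G, (χ : G → ℂ) ≠ (fun _ => 1) ∧ charDegree (χ : G → ℂ) = 1 := by
  classical
  obtain ⟨g, hg⟩ : ∃ g : G, g ∉ commutator G := by
    by_contra hc
    push Not at hc
    exact h (eq_top_iff.2 fun x _ => hc x)
  have ha : Abelianization.of g ≠ 1 := by
    intro h1
    apply hg
    exact (QuotientGroup.eq_one_iff g).1 h1
  obtain ⟨φ, hφ⟩ := CommGroup.exists_apply_ne_one_of_hasEnoughRootsOfUnity
    (Abelianization G) ℂ ha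
  refine ⟨⟨fun x => ((φ.comp Abelianization.of) x : ℂ), isIrrCharacter_of_hom _⟩, ?_, ?_⟩
  · intro h1
    have := congrFun h1 g
    apply hφ
    apply Units.ext
    simpa using this
  · simp [charDegree]

theorem exists_pow_degree [Finite G] [Nontrivial G] (p q r a b c : ℕ) (hp : p.Prime)
    (hq : q.Prime) (hr : r.Prime) (hpq : p ≠ q) (hpr : p ≠ r)
    (ha : a ≤ 2) (hG : Nat.card G = p ^ a * q ^ b * r ^ c) :
    ∃ χ : IrrCharacter G, (χ : G → ℂ) ≠ (fun _ => 1) ∧ ∃ k : ℕ, charDegree (χ : G → ℂ) = q ^ k := by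
  classical
  by_cases hperf : commutator G = ⊤
  · haveI : Fact p.Prime := ⟨hp⟩
    have ha0 : a ≠ 0 := by
      rintro rfl
      have hsol : Group.IsSolvable G :=
        Cfsg.Agent.Lib.Helper2.burnside_paqb q r b c hq hr (by rw [hG]; ring)
      have := Group.IsSolvable.commutator_lt_top_of_nontrivial G
      exact this.ne hperf
    have hpd : p ∣ Nat.card G := by
      rw [hG]
      exact Dvd.dvd.mul_right (Dvd.dvd.mul_right (dvd_pow_self p ha0) _) _
    obtain ⟨y, hy⟩ := exists_prime_orderOf_dvd_card' (G := G) p hpd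
    obtain ⟨M, hM⟩ := exists_isPModular hp
    haveI := IsPModular.isPrime hM
    obtain ⟨χ, hχB, hχ1, hχr, -⟩ := exists_principal_char p r hp hr M hM y (by rw [hy])
    refine ⟨χ, fun h => hχ1 (Subtype.ext h), ?_⟩
    have hfac : (Nat.card G).factorization p = a := by
      rw [hG, Nat.factorization_mul
        (mul_ne_zero (pow_ne_zero _ hp.ne_zero) (pow_ne_zero _ hq.ne_zero))
        (pow_ne_zero _ hr.ne_zero),
        Nat.factorization_mul (pow_ne_zero _ hp.ne_zero) (pow_ne_zero _ hq.ne_zero)]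
      simp [Nat.Prime.factorization_pow hp, Nat.Prime.factorization_pow hq,
        Nat.Prime.factorization_pow hr, Finsupp.single_apply, hpq.symm, hpr.symm]
    have hinf : sInf ((fun ψ : IrrCharacter G => (charDegree (ψ : G → ℂ)).factorization p) ''
        principalBlock M G) = 0 := by
      apply Nat.eq_zero_of_le_zero
      apply Nat.sInf_le
      refine ⟨oneIrr G, oneIrr_mem_principalBlock, ?_⟩
      simp [oneIrr, charDegree]
    have hd : blockDefect p (principalBlock M G) ≤ 2 := by
      unfold blockDefect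
      rw [hfac]
      omega
    have hht := (Cfsg.Agent.S4710.result p M hM (principalBlock M G) isPBlock_principalBlock _
      rfl).2 χ hχB
    have hh0 : blockHeight p (principalBlock M G) (χ : G → ℂ) = 0 := by
      by_cases h1 : blockDefect p (principalBlock M G) ≤ 1
      · exact hht.1 h1
      · have := hht.2 (by omega)
        omega
    unfold blockHeight at hh0
    rw [hinf, Nat.sub_zero] at hh0
    have hpos := charDegree_pos χ
    have hχp : ¬ p ∣ charDegree (χ : G → ℂ) := by
      intro hd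
      have := (Nat.Prime.factorization_pos_of_dvd hp hpos.ne' hd)
      omega
    have hdvd := charDegree_dvd_card χ
    rw [hG] at hdvd
    have hc1 : Nat.Coprime (charDegree (χ : G → ℂ)) (r ^ c) :=
      Nat.Coprime.pow_right _ (Nat.Coprime.symm ((Nat.Prime.coprime_iff_not_dvd hr).2 hχr))
    have hd1 := hc1.dvd_of_dvd_mul_right hdvd
    have hc2 : Nat.Coprime (charDegree (χ : G → ℂ)) (p ^ a) :=
      Nat.Coprime.pow_right _ (Nat.Coprime.symm ((Nat.Prime.coprime_iff_not_dvd hp).2 hχp))
    have hd2 := hc2.dvd_of_dvd_mul_left hd1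
    obtain ⟨k, _, hk⟩ := (Nat.dvd_prime_pow hq).1 hd2
    exact ⟨k, hk⟩
  · obtain ⟨χ, h1, h2⟩ := exists_linear_of_not_perfect hperf
    exact ⟨χ, h1, 0, by rw [h2, pow_zero]⟩

end Cfsg.Agent.Lib.Lead.PQR2
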